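import Mathlib
import Cfsg.Prelude.Def_Sporadic

/-! Transport of simple groups and their subgroups along an injective homomorphism. -/

set_option autoImplicit false

namespace Cfsg.Agent.H17

theorem exists_range {G Γ : Type*} [Group G] [Group Γ] (ρ : G →* Γ) (hρ : Function.Injective ρ)
    (hs : IsSimpleGroup G) {N : ℕ} (hN : Nat.card G = N) :
    ∃ X : Subgroup Γ, (IsSimpleGroup X ∧ Nat.card X = N) ∧ Nonempty (G ≃* X) := by
  have e := MonoidHom.ofInjective hρ
  exact ⟨ρ.range, ⟨e.symm.isSimpleGroup, (Nat.card_congr e.toEquiv).symm.trans hN⟩, ⟨e⟩⟩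

theorem exists_pair {G X : Type*} [Group G] [Group X] (e : G ≃* X) (H K : Subgroup G) (hK : K ≤ H)
    {n m : ℕ} (hn : H.index = n) (hs : IsSimpleGroup K) (hm : Nat.card K = m) :
    ∃ H' : Subgroup X, H'.index = n ∧ ∃ K' : Subgroup X, K' ≤ H' ∧ IsSimpleGroup K' ∧
      Nat.card K' = m := by
  have f := K.equivMapOfInjective e.toMonoidHom e.injective
  exact ⟨H.map e.toMonoidHom, (Subgroup.index_map_of_bijective (f := e.toMonoidHom) e.bijective H).trans hn,
    K.map e.toMonoidHom, Subgroup.map_mono hK, f.symm.isSimpleGroup,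
    (Nat.card_congr f.toEquiv).symm.trans hm⟩

theorem exists_range_pair {G Γ : Type*} [Group G] [Group Γ] (ρ : G →* Γ) (hρ : Function.Injective ρ)
    (hs : IsSimpleGroup G) {N : ℕ} (hN : Nat.card G = N) (H K : Subgroup G) (hK : K ≤ H)
    {n m : ℕ} (hn : H.index = n) (hs' : IsSimpleGroup K) (hm : Nat.card K = m) :
    ∃ X : Subgroup Γ, (IsSimpleGroup X ∧ Nat.card X = N) ∧ ∃ H' : Subgroup X, H'.index = n ∧
      ∃ K' : Subgroup X, K' ≤ H' ∧ IsSimpleGroup K' ∧ Nat.card K' = m := by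
  obtain ⟨X, h0, ⟨e⟩⟩ := exists_range ρ hρ hs hN
  exact ⟨X, h0, exists_pair e H K hK hn hs' hm⟩

end Cfsg.Agent.H17
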